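import Cfsg.Agent.Lib.Mon.DegP

/-! # Linear algebra for the representations of the Baby Monster -/

set_option autoImplicit false

namespace Cfsg.Lib.Bab

open Module Finset LinearMap Cfsg.Lib.Deg Subgroup

variable {K N : Type*} [Field K] [AddCommGroup N] [Module K N]

theorem cast_card_ne {A : Type*} [Fintype A] (h2 : (2 : K) ≠ 0) {k : ℕ} (h : Nat.card A ∣ 2 ^ k) :
    (Fintype.card A : K) ≠ 0 := by
  obtain ⟨j, -, e⟩ := (Nat.dvd_prime_pow Nat.prime_two).1 h
  rw [← Nat.card_eq_fintype_card, e]; simpa using fun h => (h2 h).elim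

theorem mul_pj_of {A : Type*} [Fintype A] {f : A → End K N} {β : A → ZMod 2} {T : End K N}
    (h0 : (Fintype.card A : K) ≠ 0) (h : ∀ a, T * f a = sk K (β a) • T) : T * pj f β = T := by
  simp only [pj, mul_smul_comm, mul_sum, h, smul_smul, sk_mul_self, one_smul, sum_const, card_univ,
    ← Nat.cast_smul_eq_nsmul K, inv_mul_cancel₀ h0]

theorem semi_pj' {A A' : Type*} [Group A] [Fintype A] [Group A'] [Fintype A'] {f : A → End K N} {g : A' → End K N}
    {β : A → ZMod 2} {γ : A' → ZMod 2} {T : End K N} (hf : NH f) (hg : NH g) (hβ : Ch2 β) (hγ : Ch2 γ)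
    (h0 : (Fintype.card A : K) ≠ 0) (h0' : (Fintype.card A' : K) ≠ 0)
    (h1 : ∀ a', ∃ a, T * f a = g a' * T ∧ γ a' = β a) (h2 : ∀ a, ∃ a', T * f a = g a' * T ∧ γ a' = β a) :
    T * pj f β = pj g γ * T := by
  have a : pj g γ * (T * pj f β) = T * pj f β := pj_mul_of h0' fun a' => by
    obtain ⟨a, e1, e2⟩ := h1 a'
    rw [← mul_assoc, ← e1, mul_assoc, mul_pj hf hβ, e2, mul_smul_comm]
  have b : pj g γ * T * pj f β = pj g γ * T := mul_pj_of h0 fun a => by
    obtain ⟨a', e1, e2⟩ := h2 a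
    rw [mul_assoc, e1, ← mul_assoc, pj_mul hg hγ, e2, smul_mul_assoc]
  rw [← a, ← mul_assoc, b]

theorem comm_pj {A : Type*} [Group A] [Fintype A] {f g : A → End K N} {β : A → ZMod 2} {T : End K N}
    (h : ∀ a, T * f a = g a * T) : T * pj f β = pj g β * T := semi_pj (Equiv.refl A) h fun _ => rfl

theorem eq_of_pj' {A : Type*} [Group A] [Fintype A] {f : A → End K N} {β : A → ZMod 2} (h2 : (2 : K) ≠ 0) (hf : NH f)
    (hβ : Ch2 β) {T : End K N} (h : pj f β * T ≠ 0) {a : A} {s : ZMod 2} (e : f a * T = sk K s • T) : β a = s := by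
  obtain ⟨v, hv⟩ := not_forall.1 (mt LinearMap.ext h)
  exact eq_of_pj h2 hf hβ hv congr($e v)

theorem exists_hom {e e' : End K N} (h : e ≠ 0) (h' : e' ≠ 0) (h1 : e * e = e) (h1' : e' * e' = e') :
    ∃ f : End K N, f ≠ 0 ∧ e' * f = f ∧ f * e = f := by
  obtain ⟨v, hv⟩ := not_forall.1 (mt LinearMap.ext h)
  obtain ⟨w, hw⟩ := not_forall.1 (mt LinearMap.ext h')
  obtain ⟨l, hl⟩ := Module.Projective.exists_dual_ne_zero K hv
  refine ⟨(l ∘ₗ e).smulRight (e' w), fun k => ?_, LinearMap.ext fun u => ?_, LinearMap.ext fun u => ?_⟩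
  · exact smul_ne_zero hl hw congr($k v)
  · simp [show e' (e' w) = e' w from congr($h1' w)]
  · simp [show e (e u) = e u from congr($h1 u)]

section
variable [FiniteDimensional K N]

theorem rk_add {e f : End K N} (he : e * e = e) (hf : f * f = f) (h1 : e * f = 0) (h2 : f * e = 0) :
    rk (e + f) = rk e + rk f := by
  have a : range (e + f) = range e ⊔ range f := le_antisymm (by
    rintro _ ⟨v, rfl⟩; exact Submodule.add_mem_sup ⟨v, rfl⟩ ⟨v, rfl⟩) (sup_le (by
      rintro _ ⟨v, rfl⟩; exact ⟨e v, by simpa using congr($(show (e + f) * e = e by rw [add_mul, he, h2, add_zero]) v)⟩) (by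
      rintro _ ⟨v, rfl⟩; exact ⟨f v, by simpa using congr($(show (e + f) * f = f by rw [add_mul, hf, h1, zero_add]) v)⟩))
  have b : range e ⊓ range f = ⊥ := eq_bot_iff.2 fun _ ⟨⟨v, hv⟩, w, hw⟩ => by
    rw [Submodule.mem_bot, ← hv, ← show e (e v) = e v from congr($he v), hv, ← hw]; exact congr($h1 w)
  have := Submodule.finrank_sup_add_finrank_inf_eq (range e) (range f)
  rwa [← a, b, finrank_bot] at this

theorem sum_rk_le {ι : Type*} (s : Finset ι) {e : ι → End K N} {P : End K N} (h1 : ∀ i ∈ s, e i * e i = e i)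
    (h2 : ∀ i ∈ s, ∀ j ∈ s, i ≠ j → e i * e j = 0) (h3 : ∀ i ∈ s, P * e i = e i) : ∑ i ∈ s, rk (e i) ≤ rk P := by
  classical
  have : (∑ i ∈ s, e i) * ∑ i ∈ s, e i = ∑ i ∈ s, e i ∧ rk (∑ i ∈ s, e i) = ∑ i ∈ s, rk (e i) := by
    clear h3
    induction s using Finset.induction_on with
    | empty => exact ⟨by simp, by rw [sum_empty, sum_empty, rk, LinearMap.range_eq_bot.2 rfl, finrank_bot]⟩
    | insert a s ha ih =>
      obtain ⟨i1, i2⟩ := ih (fun i hi => h1 i (mem_insert_of_mem hi)) fun i hi j hj =>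
        h2 i (mem_insert_of_mem hi) j (mem_insert_of_mem hj)
      have a1 : e a * ∑ i ∈ s, e i = 0 := by
        rw [mul_sum]; exact sum_eq_zero fun i hi => h2 a (mem_insert_self ..) i (mem_insert_of_mem hi) fun e => ha (e ▸ hi)
      have a2 : (∑ i ∈ s, e i) * e a = 0 := by
        rw [sum_mul]; exact sum_eq_zero fun i hi => h2 i (mem_insert_of_mem hi) a (mem_insert_self ..) fun e => ha (e ▸ hi)
      have a3 := h1 a (mem_insert_self ..)
      rw [sum_insert ha, sum_insert ha, rk_add a3 i1 a1 a2, i2]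
      exact ⟨by rw [add_mul, mul_add, mul_add, a1, a2, a3, i1, add_zero, zero_add], rfl⟩
  rw [← this.2]
  exact rk_le (by rw [mul_sum]; exact sum_congr rfl h3)

omit [FiniteDimensional K N] in
theorem rk_one : rk (1 : End K N) = finrank K N := by rw [rk, End.one_eq_id, range_id, finrank_top]

theorem rk_pos {e : End K N} (h : e ≠ 0) : 1 ≤ rk e := Nat.pos_of_ne_zero (mt eq_zero_of_rk h)

theorem exists_smul_hom {e e' f g : End K N} (h : rk e ≤ 1) (h' : rk e' ≤ 1) (f0 : f ≠ 0) (f1 : e' * f = f) (f2 : f * e = f)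
    (g1 : e' * g = g) (g2 : g * e = g) : ∃ c : K, g = c • f := by
  obtain ⟨v, hv⟩ := finrank_le_one_iff.1 h
  obtain ⟨w, hw⟩ := finrank_le_one_iff.1 h'
  obtain ⟨a, ha⟩ := hw ⟨f v, f v, congr($f1 v)⟩
  obtain ⟨b, hb⟩ := hw ⟨g v, g v, congr($g1 v)⟩
  replace ha := congrArg Subtype.val ha
  replace hb := congrArg Subtype.val hb
  simp only [SetLike.val_smul] at ha hb
  have k : ∀ u, ∃ d : K, f u = d • f v ∧ g u = d • g v := fun u => by
    obtain ⟨d, hd⟩ := hv ⟨e u, u, rfl⟩
    replace hd := congrArg Subtype.val hd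
    simp only [SetLike.val_smul] at hd
    exact ⟨d, by rw [← map_smul, hd]; exact congr($f2 u).symm, by rw [← map_smul, hd]; exact congr($g2 u).symm⟩
  have a0 : a ≠ 0 := fun e => f0 (LinearMap.ext fun u => by
    obtain ⟨d, h1, -⟩ := k u
    rw [h1, ← ha, e, zero_smul, smul_zero]; rfl)
  refine ⟨b / a, LinearMap.ext fun u => ?_⟩
  obtain ⟨d, h1, h2⟩ := k u
  rw [LinearMap.smul_apply, h1, h2, ← ha, ← hb, smul_smul, smul_smul, smul_smul]
  congr 1; field_simp

end

/-- A perfect group fixes the vectors of an invariant line. -/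
theorem fix_of_perfect {G L : Type*} [Group G] [Group L] {S : Subgroup G} (f : S →* L) (hf : Function.Surjective f)
    (hL : commutator L = ⊤) {R : G → End K N} (hR : ∀ g ∈ S, ∀ k ∈ S, R (g * k) = R g * R k) {v : N}
    (hs : ∀ g ∈ S, ∃ c : K, R g v = c • v) (hk : ∀ g : S, f g = 1 → R g v = v) {g : G} (hg : g ∈ S) : R g v = v := by
  rcases eq_or_ne v 0 with rfl | h0
  · exact map_zero _
  choose c hc using hs
  let χ : S →* K :=
    { toFun := fun g => c g g.2
      map_one' := smul_left_injective K h0 (((hc _ (1 : S).2).symm.trans (hk 1 (map_one f))).trans (one_smul ..).symm)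
      map_mul' := fun a b => smul_left_injective K h0 (by
        simp only [← hc, mul_smul]
        rw [Subgroup.coe_mul, hR _ a.2 _ b.2, End.mul_apply, hc _ b.2, map_smul, hc _ a.2, smul_comm]) }
  have h1 : f.ker ≤ χ.toHomUnits.ker := fun g hg => Units.ext (smul_left_injective K h0
    (((hc _ g.2).symm.trans (hk g hg)).trans (one_smul ..).symm))
  have h2 : χ.toHomUnits.ker = ⊤ := by
    rw [← comap_map_eq_self h1, eq_top_iff.2 (le_trans _ (map_mono (Abelianization.commutator_subset_ker _))), comap_top]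
    rw [_root_.commutator_def, map_commutator, map_top_of_surjective _ hf]; exact hL.ge
  rw [hc g hg, show c g hg = 1 from congrArg Units.val (h2.ge (mem_top (⟨g, hg⟩ : S))), one_smul]

/-- The sum over an orbit. -/
theorem exists_orbit_sum {G : Type*} [Group G] [Finite G] {S : Subgroup G} {R : G → End K N}
    (hR : ∀ g ∈ S, ∀ k ∈ S, R (g * k) = R g * R k) (h1 : R 1 = 1) (v : N) :
    ∃ w : N, (∀ g ∈ S, R g w = w) ∧ ∀ L : End K N, (∀ g ∈ S, R g v = v ∨ L (R g v) = 0) → L w = L v := by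
  classical
  have := Fintype.ofFinite S
  have inj : ∀ g ∈ S, Function.Injective (R g) := fun g hg => Function.LeftInverse.injective (g := R g⁻¹) fun u => by
    rw [← End.mul_apply, ← hR _ (inv_mem hg) _ hg, inv_mul_cancel, h1, End.one_apply]
  refine ⟨∑ u ∈ univ.image fun g : S => R g v, u, fun g hg => ?_, fun L hL => ?_⟩
  · have e : (univ.image fun k : S => R k v).image (R g) = univ.image fun k : S => R k v :=
      eq_of_subset_of_card_le (image_subset_iff.2 fun u hu => by
        obtain ⟨k, -, rfl⟩ := mem_image.1 hu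
        exact mem_image.2 ⟨⟨g, hg⟩ * k, mem_univ _, congr($(hR _ hg _ k.2) v)⟩) (card_image_of_injective _ (inj g hg)).ge
    conv_rhs => rw [← e, sum_image fun _ _ _ _ h => inj g hg h]
    rw [map_sum]
  · rw [map_sum, sum_eq_single_of_mem v (mem_image.2 ⟨1, mem_univ _, by simp [h1]⟩) fun u hu e => ?_]
    obtain ⟨k, -, rfl⟩ := mem_image.1 hu
    exact (hL k k.2).resolve_left e

section
variable {T T' b b' φ A : End K N} (h3 : T * T * T = 1) (h3' : T' * T' * T' = 1) (hb : b * T = T * T * b)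
  (hb' : b' * T' = T' * T' * b') (h2 : b * b = 1) (hφ : b' * φ = φ * b) (hA : b * A = A * b)
include h3 h3' hb hb' h2 hφ hA

/-- three blocks permuted by `S₃` -/
theorem s3_block (h : T' * φ * (T * T * A) = φ * A) : T' * φ * A = φ * T * A ∧ T' * φ * (T * A) = φ * T * (T * A) := by
  have r3 : ∀ X, T * (T * (T * X)) = X := fun X => by rw [← mul_assoc, ← mul_assoc, h3, one_mul]
  have r3' : ∀ X, T' * (T' * (T' * X)) = X := fun X => by rw [← mul_assoc, ← mul_assoc, h3', one_mul]
  have rb : ∀ X, b * (T * X) = T * (T * (b * X)) := fun X => by rw [← mul_assoc, hb]; simp only [mul_assoc]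
  have rb' : ∀ X, b' * (T' * X) = T' * (T' * (b' * X)) := fun X => by rw [← mul_assoc, hb']; simp only [mul_assoc]
  have rφ : ∀ X, b' * (φ * X) = φ * (b * X) := fun X => by rw [← mul_assoc, hφ, mul_assoc]
  simp only [mul_assoc] at h ⊢
  have c := congr(b' * $h * b)
  simp only [mul_assoc, rb', rφ, rb, r3] at c
  rw [← hA, ← mul_assoc b, h2, one_mul] at c
  have d : T' * (φ * A) = φ * (T * A) := by rw [← c, r3']
  refine ⟨d, ?_⟩
  rw [← d, ← h, r3']

/-- a block fixed by `S₃` -/
theorem s3_fix (hT : T * A = A * T) {c : K} (h : T' * φ * A = c • (φ * T * A)) : T' * φ * A = φ * T * A := by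
  have r3 : ∀ X, T * (T * (T * X)) = X := fun X => by rw [← mul_assoc, ← mul_assoc, h3, one_mul]
  have r3' : ∀ X, T' * (T' * (T' * X)) = X := fun X => by rw [← mul_assoc, ← mul_assoc, h3', one_mul]
  have rb : ∀ X, b * (T * X) = T * (T * (b * X)) := fun X => by rw [← mul_assoc, hb]; simp only [mul_assoc]
  have rb' : ∀ X, b' * (T' * X) = T' * (T' * (b' * X)) := fun X => by rw [← mul_assoc, hb']; simp only [mul_assoc]
  have rφ : ∀ X, b' * (φ * X) = φ * (b * X) := fun X => by rw [← mul_assoc, hφ, mul_assoc]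
  have rT : ∀ X, A * (T * X) = T * (A * X) := fun X => by rw [← mul_assoc, ← hT, mul_assoc]
  have p : ∀ X, T' * (φ * (A * X)) = c • (φ * (T * (A * X))) := fun X => by
    simpa only [mul_assoc, smul_mul_assoc] using congr($h * X)
  have p' : ∀ X, T' * (φ * (T * (A * X))) = c • (φ * (T * (T * (A * X)))) := fun X => by rw [← rT, p, rT]
  have a := congr(b' * $(p b))
  rw [mul_smul_comm, rb', rφ, rφ, rb, ← mul_assoc b A, hA, mul_assoc, h2] at a
  have q := congr(T' * $a)
  rw [r3', mul_smul_comm, ← rT, ← rT, p, rT, rT, r3, smul_smul] at q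
  rw [p, mul_smul_comm, p', smul_smul] at a
  have e := congr($a * T * T)
  simp only [mul_one, mul_assoc, smul_mul_assoc, rT, ← hT, r3] at e q
  have q' := congr($q * T)
  simp only [mul_assoc, smul_mul_assoc, ← hT] at q'
  rw [h, mul_assoc φ, ← e, ← q']

end

end Cfsg.Lib.Bab
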