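import Cfsg.Agent.Lib.Bab.Lee
import Cfsg.Agent.Lib.Bab.Lin
import Cfsg.Agent.Lib.Mon.Deg2
import Cfsg.Agent.Lib.MT.Q
import Cfsg.Agent.Lib.M3.Geo

/-! # The centralizer `2 · B` of a short element: local subgroups and their orbits -/

set_option autoImplicit false

namespace Cfsg.Lib.Bab

open Finset Griess Subgroup MulAction Cfsg.Lib.Mon Cfsg.Lib.Deg Cfsg.Lib.M3 Matrix
open Spor hiding tau
open Leech hiding vW

/-- a point -/
abbrev pI : Pt := none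
/-- a point -/
abbrev pJ : Pt := some 0
/-- a point -/
abbrev pK : Pt := some 1
/-- a point -/
abbrev pL : Pt := some 2
/-- the duad -/
abbrev d0 : W := e1 pI + e1 pJ
/-- the tetrad -/
abbrev dT : W := d0 + (e1 pK + e1 pL)
/-- the short element -/
def tq : Q := eP 0 pI pJ
/-- the central involution of `2 · B` -/
noncomputable abbrev tA : Aut := qV tq
/-- `2 · B` -/
noncomputable def B0 : Subgroup Aut := M1 ⊓ centralizer {tA}
/-- `2²⁺²² . Co₂` -/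
noncomputable def C0 : Subgroup Aut := CZ ⊓ centralizer {tA}
/-- the centralizer of the four-group -/
noncomputable def N3 : Subgroup Aut := NV ⊓ centralizer {tA}
/-- the weights -/
def Wt (x : Q) : Prop := Short x ∧ Short (x * tq)
/-- equality of weights -/
def Sim (x y : Q) : Prop := piQ x = piQ y ∨ piQ x = piQ (y * tq)

variable {g c n u : Aut} {q x y x' y' : Q} {σ : M24} {d e : Cd} {δ : W} {a b m : Pt}

theorem hIJ : pI ≠ pJ := nofun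
theorem tA_eq : tA = bq d0 := qV_eP0 _ _
theorem short_t : Short tq := short_eP 0 hIJ
@[simp] theorem tq_d : tq.d = 0 := zero_smul _ _
@[simp] theorem tq_c : tq.c = cs d0 := rfl
@[simp] theorem tq_s : tq.s = 0 := rfl
theorem t_mul_t : tq * tq = 1 := short_t.mul_self
theorem cm_t (q : Q) : cmQ q tq = pr q.d (cs d0) := by simp [cmQ]
theorem cm_om (q : Q) : cmQ q aOm = pr Om q.c := by simp [cmQ]
theorem mem_C0 : g ∈ C0 ↔ g ∈ CZ ∧ g * tA * g⁻¹ = tA := and_congr_right' (mem_centralizer_singleton_iff.trans mul_inv_eq_iff_eq_mul.symm)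
theorem mem_N3 : g ∈ N3 ↔ g ∈ NV ∧ g * tA * g⁻¹ = tA := and_congr_right' (mem_centralizer_singleton_iff.trans mul_inv_eq_iff_eq_mul.symm)
theorem mem_B0 : g ∈ B0 ↔ g ∈ M1 ∧ g * tA * g⁻¹ = tA := and_congr_right' (mem_centralizer_singleton_iff.trans mul_inv_eq_iff_eq_mul.symm)
theorem N3_le : N3 ≤ C0 := inf_le_inf_right _ NV_le
theorem C0_le : C0 ≤ B0 := inf_le_inf_right _ CZ_le_M1
theorem comm_iff : qV x * qV y = qV y * qV x ↔ cmQ x y = 0 := ⟨pr_eq_of_comm, qV_comm⟩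
theorem qV_C0 : qV q ∈ C0 ↔ pr q.d (cs d0) = 0 := by
  rw [← cm_t, ← comm_iff]; exact (and_iff_right (qV_mem q)).trans mem_centralizer_singleton_iff
theorem qV_N3 : qV q ∈ N3 ↔ pr q.d (cs d0) = 0 ∧ pr Om q.c = 0 := by
  rw [← qV_C0, ← cm_om, ← comm_iff, ← mem_centralizer_singleton_iff]; exact and_right_comm
theorem tau_B0 : tau ∈ B0 := mem_B0.2 ⟨tau_mem_M1, tA_eq ▸ tau_conj_bq (pair_dot_one _ _)⟩
theorem tau_N3 (h : n ∈ N3) : tau * n * tau⁻¹ ∈ N3 := 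
  ⟨tau_conj_mem h.1, (mul_mem (mul_mem tau_B0 (C0_le (N3_le h))) (inv_mem tau_B0)).2⟩
theorem tau_inv_N3 (h : n ∈ N3) : tau⁻¹ * n * tau ∈ N3 := 
  ⟨tau_inv_conj_mem h.1, (mul_mem (mul_mem (inv_mem tau_B0) (C0_le (N3_le h))) tau_B0).2⟩
theorem bq_C0 (δ : W) : bq δ ∈ C0 := qV_C0.2 (pr_zero _)
theorem xq_N3 (h : pr d (cs d0) = 0) (s : ZMod 2) : xq s d ∈ N3 := qV_N3.2 ⟨h, by simp⟩
theorem yq_N3 (h : pr d (cs d0) = 0) (s : ZMod 2) : yq s d ∈ N3 := tau_N3 (xq_N3 h s)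
theorem xp_N3 (h : sW σ d0 = d0) : xp σ ∈ N3 := mem_N3.2 ⟨xp_mem σ, by rw [tA_eq, xp_bq, h]⟩
theorem z_N3 : zA ∈ N3 := qV_N3.2 ⟨by simp, by simp⟩
theorem w_N3 : wA ∈ N3 := qV_N3.2 ⟨by simp, by simp⟩
theorem conj_C0 (hg : g ∈ B0) (hc : c ∈ B0) (e : g * c * zA * (g * c)⁻¹ = zA) : g * c ∈ C0 := ⟨mem_CZ.2 e, (mul_mem hg hc).2⟩

theorem cm_conj (h : g * qV x * g⁻¹ = qV x') (h' : g * qV y * g⁻¹ = qV y') : cmQ x' y' = cmQ x y :=
  (by decide : ∀ a b : ZMod 2, (a = 0 ↔ b = 0) → a = b) _ _ (by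
    rw [← comm_iff, ← comm_iff, ← h, ← h', _root_.conj_mul, _root_.conj_mul, mul_left_inj, mul_right_inj])

theorem exists_pr₂ {c c' : Cs} (h : c ≠ 0) (h' : c' ≠ 0) (e : c ≠ c') (s t : ZMod 2) : ∃ d, pr d c = s ∧ pr d c' = t := by
  obtain ⟨q, h⟩ := exists_comm₂ (x := ⟨0, 0, c⟩) (y := ⟨0, 0, c'⟩) (fun k => by rcases piQ_eq_zero k with k | k <;> exact h congr(($k).c))
    (fun k => by rcases piQ_eq_zero k with k | k <;> exact h' congr(($k).c))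
    (fun k => by rcases piQ_eq_iff.1 k with k | k <;> exact e (by simpa using congr(($k).c))) s t
  exact ⟨q.d, by simpa using h⟩

theorem dc_of (h : piQ x = piQ y) : x.d = y.d ∧ x.c = y.c := by rcases piQ_eq_iff.1 h with rfl | rfl <;> simp

theorem c0_ne : cs d0 ≠ 0 := du_ne hIJ

theorem zero_or {c : Cs} (h : ∀ d, pr d (cs d0) = 0 → pr d c = 0) : c = 0 ∨ c = cs d0 := by
  by_contra! k
  obtain ⟨d, a, b⟩ := exists_pr₂ c0_ne k.1 k.2.symm 0 1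
  exact zero_ne_one ((h d a).symm.trans b)

theorem pr_smul {c : Cs} (h : pr d c = 0) (s : ZMod 2) : pr (s • d) c = 0 := by rcases z2_cases s with rfl | rfl <;> simp [h]

theorem sW_d0 (h : cs (sW σ d0) = cs d0) : sW σ d0 = d0 := by
  rw [sW_add, sW_e1, sW_e1] at h ⊢
  rcases eq_of_du hIJ ((σ : Equiv.Perm Pt).injective.ne hIJ) h with ⟨a, b⟩ | ⟨a, b⟩ <;> rw [a, b]
  exact add_comm _ _

theorem yq_bq (h : δ ⬝ᵥ 1 = 0) (d : Cd) : yq 0 d * bq δ * (yq 0 d)⁻¹ = qV (qe 0 (((d : W) ⬝ᵥ δ) • Om) δ) := by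
  rw [qe_Om, map_mul, ← bq, ← tau_conj_zp, ← tau_conj_bq h, yq, conj_inv, _root_.conj_mul, _root_.conj_mul,
    _root_.conj_mul, xq, bq, qV_conj]
  simp

theorem conj_even (h : δ ⬝ᵥ 1 = 0) (e d : Cd) (σ : M24) : xq 0 e * yq 0 d * xp σ * bq δ * (xq 0 e * yq 0 d * xp σ)⁻¹ =
    qV (qe ((e : W) ⬝ᵥ sW σ δ) (((d : W) ⬝ᵥ sW σ δ) • Om) (sW σ δ)) := by
  rw [conj_mul_conj, xp_bq, conj_mul_conj, yq_bq (sW_even σ h), xq, qV_conj, ← map_mul, zp_mul_qe]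
  rcases z2_cases ((d : W) ⬝ᵥ sW σ δ) with k | k <;> simp [k]

theorem exists_perm {l l' : List Pt} (h : l.Nodup) (h' : l'.Nodup) (e : l.length = l'.length := by rfl) (h5 : l.length ≤ 5 := by simp) :
    ∃ σ : M24, l.map (σ : Equiv.Perm Pt) = l' :=
  let ⟨σ, _, k⟩ := Mathieu.tr5_univ _ _ h h' e h5 (by simp) (by simp); ⟨σ, k⟩

theorem NV_trans (h : PT x) : ∃ n ∈ NV, n * tA * n⁻¹ = qV x := by
  obtain ⟨s, r, a, b, h, rfl⟩ := h
  obtain ⟨σ, k⟩ := exists_perm (l := [pI, pJ]) (l' := [a, b]) (by decide) (by simpa)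
  obtain ⟨d, hd⟩ := not_forall.1 (mt eq_zero_of_pr_right (du_ne h))
  simp only [List.map_cons, List.map_nil, List.cons.injEq, and_true] at k
  refine ⟨xq 0 (s • d) * yq 0 (r • d) * xp σ, mul_mem (mul_mem (xq_mem _ _) (yq_mem _ _)) (xp_mem _), ?_⟩
  rw [tA_eq, conj_even (pair_dot_one _ _), sW_add, sW_e1, sW_e1, k.1, k.2, eP, zp_mul_qe]
  simp [show (d : W) a + (d : W) b = 1 by simpa using (z2_cases _).resolve_left hd, ← mul_add]

/-- transitivity on edges -/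
theorem edge (hc : c ∈ CZ) (e : c * wA * c⁻¹ = qV x) (h : Short (tq * x)) : ∃ c ∈ C0, c * wA * c⁻¹ = qV x := by
  obtain ⟨r, e1, -, e2⟩ := exists_conj (inv_mem hc) tq
  obtain ⟨n, hn, e3⟩ := NV_trans (pt_of_om (e2.2 short_t) (short_of_conj (g := c) (by rw [map_mul, map_mul, ← e1, ← e]; group) h))
  refine ⟨c * n, mem_C0.2 ⟨mul_mem hc (NV_le hn), by rw [conj_mul_conj, e3, ← e1]; group⟩, ?_⟩
  rw [conj_mul_conj, (mem_NV.1 hn).2, mul_inv_cancel_right, e]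

theorem bT_eq : bq dT = tA * bq (e1 pK + e1 pL) := by rw [bq_add, tA_eq]

/-- transitivity on triangles -/
theorem triangle (h0 : U0 (piQ x)) (h1 : ¬ Short x) (h2 : x.c ≠ 0) (h : Short (tq * x)) : ∃ n ∈ N3, n * bq dT * n⁻¹ = qV x := by
  obtain ⟨s, r, a, b, h3, e⟩ := pt_of_u0 h (by simpa [u0_piQ] using h0)
  obtain rfl : x = tq * (zp s * eP r a b) := by rw [← e, ← mul_assoc, t_mul_t, one_mul]
  have key : ∀ {a b i j}, i ≠ j → e1 i + e1 j = d0 → ¬ Short (tq * (zp s * eP r a b)) → (tq * (zp s * eP r a b)).c ≠ 0 → i ≠ a := by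
    rintro a b i j ij e h h' rfl
    by_cases k : j = b
    · exact h' (by simp [eP, ← e, k])
    refine h ((short_congr' (piQ_congr (by simp [eP]) ?_)).1 (short_eP r k))
    simp only [eP, mul_c, qe_c, tq_c, zp_c, zero_add, ← e, ← cs_add, add_add_add_comm (e1 i), w_add_self]
  have k1 := key hIJ rfl h1 h2
  have k2 := key hIJ.symm (add_comm _ _) h1 h2
  rw [← eP_swap] at h1 h2
  have k3 := key hIJ rfl h1 h2
  have k4 := key hIJ.symm (add_comm _ _) h1 h2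
  have n : [pI, pJ, a, b].Nodup := by simp [k1, k2, k3, k4, h3]
  obtain ⟨σ, k⟩ := exists_perm (l := [pI, pJ, pK, pL]) (by decide) n
  simp only [List.map_cons, List.map_nil, List.cons.injEq, and_true] at k
  obtain ⟨d, d1, d2⟩ := exists_pr₂ c0_ne (du_ne h3) (fun k => (eq_of_du h3 hIJ k).elim (k1 ·.1) (k3 ·.1)) 0 1
  have m : xq 0 (s • d) * yq 0 (r • d) * xp σ ∈ N3 := mul_mem (mul_mem (xq_N3 (pr_smul d1 s) _) (yq_N3 (pr_smul d1 r) _))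
    (xp_N3 (by rw [sW_add, sW_e1, sW_e1, k.1, k.2.1]))
  refine ⟨_, m, ?_⟩
  rw [bT_eq, ← _root_.conj_mul, (mem_N3.1 m).2, conj_even (pair_dot_one _ _), sW_add, sW_e1, sW_e1, k.2.2.1, k.2.2.2, map_mul,
    eP, zp_mul_qe]
  simp [show (d : W) a + (d : W) b = 1 by simpa using d2, ← mul_add]

theorem wt_dT : wt dT = 4 := by decide +kernel

theorem short_t_bT : Short (tq * qe 0 0 dT) :=
  short_of_conj (g := 1) (x := eP 0 pK pL) (by rw [map_mul, ← bq, bT_eq, ← mul_assoc tA, ← map_mul, t_mul_t, qV_eP0]; simp)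
    (short_eP 0 (by decide))

theorem exists_s : ∃ s ∈ C0, s * wA * s⁻¹ = bq dT ∧ s * bq dT * s⁻¹ = wA := by
  obtain ⟨c, hc, e⟩ := exists_conj_wA wt_dT
  obtain ⟨c, hc, e⟩ := edge hc e short_t_bT
  obtain ⟨x, e1, -⟩ := exists_conj (inv_mem hc.1) aOm
  obtain ⟨y, e2⟩ := ((inQ_bq_w wt_dT).conj c⁻¹).exists (k := tau) (by rw [tau_conj_zQ, bq, ← e]; group)
  have e3 : c * qV x * c⁻¹ = wA := by rw [← e1]; group
  have hx : x.c ≠ 0 := fun k => by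
    have e4 := (piM_conj ⟨c, hc.1⟩ x).symm.trans (congrArg piM e3)
    have e5 := (piM_conj ⟨c, hc.1⟩ aOm).symm.trans (congrArg piM e)
    rw [piM_qV] at e4 e5
    rcases (u0_piQ.1 (u0_iff.2 ⟨y, e2.trans e1⟩)).1 with l | l
    · rw [piQ_congr (y := 1) l k, piQ_one, smul_zero] at e4
      exact om_ne_zero e4.symm
    · rw [piQ_congr (y := aOm) l k, e5] at e4
      simpa using congr(($((dc_of e4).1)).1 none)
  obtain ⟨n, hn, e4⟩ := triangle (u0_iff.2 ⟨y, e2.trans e1⟩) (fun h => not_isConj h (isConj_w.trans (isConj_iff.2 ⟨_, e1⟩))) hx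
    (short_of_conj (g := c) (x := tq * aOm) (conj_mul (mem_C0.1 hc).2 e3)
      ((short_congr' (piQ_congr (by simp [eP]) (by simp [eP]))).1 (short_eP 1 hIJ)))
  exact ⟨c * n, mul_mem hc (N3_le hn), by rw [conj_mul_conj, (mem_NV.1 hn.1).2, mul_inv_cancel_right, e, bq],
    by rw [conj_mul_conj, e4, e3]⟩

theorem N3_dec (h : n ∈ N3) : ∃ d σ q, pr d (cs d0) = 0 ∧ sW σ d0 = d0 ∧ qV q ∈ N3 ∧ n = yq 0 d * xp σ * qV q := by
  obtain ⟨σ, d, I⟩ := exists_ind_NV h.1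
  have h1 := I.piQ (mem_N3.1 h).2
  rw [tq, eP, mo_even _ _ _ _ (pair_dot_one _ _)] at h1
  have h2 := sW_d0 (dc_of h1).2.symm
  have h3 : pr d (cs d0) = 0 := by simpa [h2] using congr(($((dc_of h1).1)).1 none).symm
  obtain ⟨m, J⟩ := (ind_yq 0 d).mul (ind_xp σ)
  obtain ⟨q, hq⟩ := (rhoC_eq_one (g := ⟨_, m⟩⁻¹ * ⟨_, I.1⟩)).1 (by rw [map_mul, map_inv, J, I.2]; simp)
  exact ⟨d, σ, q, h3, h2, hq ▸ mul_mem (inv_mem (mul_mem (yq_N3 h3 0) (xp_N3 h2))) h, eq_mul_of_inv_mul_eq hq.symm⟩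

theorem exists_dp (h : n ∈ N3) : ∃ σ, Dp n σ ∧ sW σ d0 = d0 := by
  obtain ⟨d, σ, q, -, h1, -, rfl⟩ := N3_dec h
  exact ⟨σ, by simpa using ((ind_yq 0 d).dp.mul (dp_xp σ)).mul (ind_qV q).dp, h1⟩

theorem dp_bq (h : n ∈ NV) (h1 : Dp n σ) (hδ : δ ⬝ᵥ 1 = 0) :
    ∃ w, n * bq δ * n⁻¹ = qV w ∧ (∃ r : ZMod 2, w.d = r • Om) ∧ w.c = cs (sW σ δ) := by
  obtain ⟨_, d, I⟩ := exists_ind_NV h
  obtain ⟨w, e1, e2⟩ := (I.of_dp h1).conj (qe 0 ((0 : ZMod 2) • Om) δ)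
  rw [mo_even _ _ _ _ hδ, zero_smul] at *
  exact ⟨w, e1, ⟨_, (dc_of e2).1⟩, (dc_of e2).2⟩

theorem pr_conj (h : n ∈ NV) (h1 : Dp n σ) (e : n * qV x * n⁻¹ = qV y) (hx : pr Om x.c = 0) (hδ : δ ⬝ᵥ 1 = 0) :
    pr y.d (cs (sW σ δ)) = pr x.d (cs δ) := by
  obtain ⟨w, e1, ⟨r, e2⟩, e3⟩ := dp_bq h h1 hδ
  have a := cm_conj e e1
  have b := cm_conj e (mul_inv_eq_iff_eq_mul.2 (mem_NV.1 h).2)
  rw [cm_om, cm_om, hx] at b
  rw [cmQ, cmQ, e2, e3, qe_d, pr_smul b, pr_zero, add_zero, add_zero] at a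
  exact a

theorem Sim.rfl : Sim x x := .inl (Eq.refl _)
theorem sim_t : Sim (x * tq) x := .inr (Eq.refl _)
theorem Sim.symm (h : Sim x y) : Sim y x := h.imp Eq.symm fun h => by rw [piQ_mul, h, ← piQ_mul, mul_assoc, t_mul_t, mul_one]
theorem Sim.cm (h : Sim x y) (hq : pr q.d (cs d0) = 0) : cmQ q x = cmQ q y := by
  rcases h with h | h <;> rw [cmQ_congr h]
  rw [cmQ_mul, cm_t, hq, add_zero]
theorem exists_cm_ne (h : ¬ Sim x y) : ∃ q, pr q.d (cs d0) = 0 ∧ cmQ q x ≠ cmQ q y := by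
  obtain ⟨q, a, b⟩ := exists_comm₂ (x := tq) (y := x * y) short_t.piQ_ne
    (fun e => h (.inl (by rwa [piQ_mul, add_eq_zero_iff_eq_neg, l2_neg] at e)))
    (fun e => h (.inr (by rw [piQ_mul, e, piQ_mul, add_left_comm, l2_add_self, add_zero]))) 0 1
  exact ⟨q, (cm_t q).symm.trans a, fun e => zero_ne_one ((z2_eq_iff.1 e).symm.trans ((cmQ_mul ..).symm.trans b))⟩
theorem Sim.cases (h : Sim y x) : y ∈ ({x, zQ * x, x * tq, zQ * (x * tq)} : Finset Q) := by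
  rcases h with h | h <;> rcases piQ_eq_iff.1 h with h | h <;> simp [h]

theorem rep_t : Rep tq (pv pI pJ 0 1) := by simpa [zp_zero, tq] using rep_pv hIJ 0 0 0
theorem piQ_t : (leechU' : L2) = piQ tq := (congrArg _ (Subtype.ext (by decide +kernel))).trans rep_t.2
theorem Wt.dt (h : Wt x) {v : leechLattice} (e : Rep x v) : v⦃pI⦄ - v⦃pJ⦄ = 4 ∨ v⦃pI⦄ - v⦃pJ⦄ = -4 := by
  have := dot_of_short_mul e.1 rep_t.1 e.2 rep_t.2 h.2
  rw [dt_pv', sz_zero, sz_one] at this; omega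
theorem Wt.four (h : Wt x) : ip (ax tq) (ax x) = 4 :=
  let ⟨_, a, b⟩ := h.1; four_of_dt rep_t.1 a rep_t.2 b (by rw [dot_comm]; exact dot_of_short_mul a rep_t.1 b rep_t.2 h.2)
theorem Wt.conj (h : Wt x) (h' : Wt y) : ∃ c ∈ C0, c * qV x * c⁻¹ = qV y :=
  let ⟨c, a, b, e⟩ := exists_conj₂ short_t h.1 short_t h'.1 h.four h'.four; ⟨c, mem_C0.2 ⟨a, b⟩, e⟩
theorem ncard_wt : 9200 ≤ {x | Wt x}.ncard := (ncard_four short_t).ge.trans (Set.ncard_le_ncard fun x h => ⟨h.1,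
  (short_congr' (by rw [piQ_mul, piQ_mul, add_comm])).1 (twoA_ax short_t h.1 ((ip_four_iff short_t h.1).2 h.2)).1⟩)
theorem Wt.not_sim (h : Wt x) : ¬ Sim x 1 := fun e => e.elim (fun e => h.1.piQ_ne (e.trans piQ_one)) fun e => h.2.piQ_ne (by
  rw [piQ_mul, e, one_mul, l2_add_self])
theorem wt_P (h : m ≠ pI) (h' : m ≠ pJ) : Wt (eP 0 pI m) := ⟨short_eP 0 h.symm, (short_congr' (piQ_congr (by simp [eP]) (by
  simp only [eP, mul_c, qe_c, tq_c, d0, ← cs_add]; rw [add_add_add_comm, w_add_self, zero_add]))).1 (short_eP 0 h')⟩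
theorem eW_mul (h : (d : W) pI = (d : W) pJ) : piQ (eW d pJ * tq) = piQ (eW d pI) := piQ_congr (by simp [eW, h]) (by
  simp only [eW, mul_c, qe_c, tq_c, d0, ← cs_add]; rw [add_comm (e1 pI), ← add_assoc, add_add_w])
theorem wt_W : Wt (eW 0 pI) := ⟨short_eW _ _, (short_congr' ((Sim.symm (.inr (eW_mul rfl).symm)).resolve_left fun e => by
  simpa using (eq_of_piQ_eW e).1)).1 (short_eW 0 pJ)⟩
theorem PT.u0 (h : PT x) : U0 (piQ x) := by
  obtain ⟨s, r, a, b, -, rfl⟩ := h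
  exact u0_qe.2 ⟨_, _, _, pair_dot_one _ _, zp_mul_qe ..⟩

theorem Wt.cases (h : Wt x) : U0 (piQ x) ∨
    (∃ O δ, ∃ k : Good O δ, (lT k : L2) = piQ x ∧ (O : W) pI = 1 ∧ (O : W) pJ = 1 ∧ δ pI + δ pJ = 1) ∨
      pr Om x.c = 1 ∧ ∃ n ∈ N3, ∃ y, n * qV (eW 0 pI) * n⁻¹ = qV y ∧ Sim y x := by
  obtain ⟨v, hv⟩ := h.1
  have h1 := h.dt hv
  rcases short_vec hv.1 with ⟨a, b, s, t, k, rfl⟩ | ⟨O, δ, k, rfl⟩ | ⟨d, k, rfl⟩
  · exact .inl (let ⟨s, e⟩ := pt_of_rep k hv; PT.u0 ⟨s, _, a, b, k, e⟩)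
  · refine .inr (.inl ⟨O, δ, k, hv.2, ?_⟩)
    rw [lT_apply, lT_apply] at h1
    revert h1; generalize (O : W) pI = a, (O : W) pJ = b, δ pI = c, δ pJ = d; revert a b c d; decide
  have e := hv.2.symm.trans (mk_lW d k)
  have h2 : (d : W) pI = (d : W) pJ ∧ (k = pI ∨ k = pJ) := by
    have a := sz_cases ((d : W) pI)
    have b := sz_cases ((d : W) pJ)
    by_cases k1 : k = pI
    · rw [k1, lW_self, lW_ne _ hIJ.symm] at h1; exact ⟨sz_inj (by omega), .inl k1⟩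
    by_cases k2 : k = pJ
    · rw [k2, lW_self, lW_ne _ hIJ] at h1; exact ⟨sz_inj (by omega), .inr k2⟩
    · rw [lW_ne _ (Ne.symm k1), lW_ne _ (Ne.symm k2)] at h1; omega
  obtain ⟨s, e1⟩ := (ind_yq 0 d).eW 0 pI
  refine .inr (.inr ⟨by rw [(dc_of e).2]; exact par_eW d k, _, yq_N3 (by simp [h2.1]) 0, _, e1, ?_⟩)
  rw [Sim, piQ_zp_mul, piQ_mul, e, ← piQ_mul, sC_one, add_zero]
  rcases h2.2 with rfl | rfl
  exacts [.inl rfl, .inr (eW_mul h2.1).symm]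

theorem Wt.P (h : Wt x) (h0 : U0 (piQ x)) : ∃ m, m ≠ pI ∧ m ≠ pJ ∧ (x.c = du pI m ∨ x.c = du pJ m) := by
  obtain ⟨s, r, a, b, k, rfl⟩ := pt_of_u0 h.1 h0
  have h1 := h.dt (rep_pv k s r 0)
  have h2 := sz_cases (0 + r + 1)
  have h3 : ¬ (a = pI ∧ b = pJ ∨ a = pJ ∧ b = pI) := fun e => h.2.piQ_ne (by
    have : (zp s * eP r a b * tq).c = 0 := by rcases e with ⟨rfl, rfl⟩ | ⟨rfl, rfl⟩ <;> simp [eP, add_comm]
    rcases z2_cases r with rfl | rfl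
    · exact (piQ_congr (y := 1) (by simp [eP]) this).trans piQ_one
    · exact (h.2.ne_om (piQ_congr (by simp [eP]) this)).elim)
  by_cases a1 : a = pI
  · exact ⟨b, a1 ▸ k.symm, fun e => h3 (.inl ⟨a1, e⟩), .inl (by simp [eP, a1])⟩
  by_cases a2 : a = pJ
  · exact ⟨b, fun e => h3 (.inr ⟨a2, e⟩), a2 ▸ k.symm, .inr (by simp [eP, a2])⟩
  refine ⟨a, a1, a2, ?_⟩
  by_contra! e
  rw [pv_ne (Ne.symm a1) fun f => e.1 (by simp [eP, f, add_comm]), pv_ne (Ne.symm a2) fun f => e.2 (by simp [eP, f, add_comm])] at h1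
  omega

theorem exists_oct_perm {O P : Cd} (hO : wt O = 8) (hP : wt P = 8) (h1 : (O : W) pI = 1) (h2 : (O : W) pJ = 1)
    (h3 : (P : W) pI = 1) (h4 : (P : W) pJ = 1) : ∃ σ : M24, (σ : Equiv.Perm Pt) pI = pI ∧ (σ : Equiv.Perm Pt) pJ = pJ ∧ sC σ P = O := by
  have three : ∀ {P : Cd}, wt P = 8 → ∃ p q r, (P : W) p = 1 ∧ (P : W) q = 1 ∧ (P : W) r = 1 ∧ [pI, pJ, p, q, r].Nodup := fun hP => by
    obtain ⟨r, r1, r2⟩ := exists_mem_wt {pI, pJ} (hP ▸ card_le_two.trans_lt (by norm_num : 2 < 8))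
    obtain ⟨p, p1, p2⟩ := exists_mem_wt {pI, pJ, r} (hP ▸ card_le_three.trans_lt (by norm_num : 3 < 8))
    obtain ⟨q, q1, q2⟩ := exists_mem_wt {pI, pJ, r, p} (hP ▸ card_le_four.trans_lt (by norm_num : 4 < 8))
    exact ⟨p, q, r, p1, q1, r1, by simp_all [eq_comm]⟩
  obtain ⟨p, q, r, p1, q1, r1, n⟩ := three hP
  obtain ⟨p', q', r', p2, q2, r2, n'⟩ := three hO
  obtain ⟨σ, hσ⟩ := exists_perm n n'
  simp only [List.map_cons, List.map_nil, List.cons.injEq, and_true] at hσ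
  have ap : ∀ {x y} (u : W), (σ : Equiv.Perm Pt) x = y → sW σ u y = u x := fun u e => e ▸ sW_apply σ u _
  refine ⟨σ, hσ.1, hσ.2.1, Subtype.ext (funext fun m => by_contra fun e => ?_)⟩
  have : ({pI, pJ, p', q', r'} : Finset Pt).card ≤ wt ((sC σ P : W) * O) := card_le_wt fun k hk => by
    simp only [mem_insert, mem_singleton] at hk
    rcases hk with rfl | rfl | rfl | rfl | rfl <;> simp [sC, ap _ hσ.1, ap _ hσ.2.1, ap _ hσ.2.2.1, ap _ hσ.2.2.2.1,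
      ap _ hσ.2.2.2.2, *]
  rw [show ({pI, pJ, p', q', r'} : Finset Pt) = [pI, pJ, p', q', r'].toFinset by simp, List.toFinset_card_of_nodup n'] at this
  have := wt_mul_four ((wt_sW σ _).trans hP) hO e (le_trans (by simp) this)
  simp at *; omega

theorem Wt.T (h : Wt x) (h' : Wt y) (h0 : ¬ U0 (piQ x)) (h0' : ¬ U0 (piQ y)) (h1 : pr Om x.c = 0) (h1' : pr Om y.c = 0) :
    ∃ n ∈ N3, ∃ w, n * qV x * n⁻¹ = qV w ∧ Sim w y := by
  obtain ⟨P, δ, k, e, a1, a2, a3⟩ := (h.cases.resolve_left h0).resolve_right fun e => zero_ne_one (h1.symm.trans e.1)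
  obtain ⟨O, γ, k', e', b1, b2, b3⟩ := (h'.cases.resolve_left h0').resolve_right fun e => zero_ne_one (h1'.symm.trans e.1)
  obtain ⟨σ, s1, s2, rfl⟩ := exists_oct_perm k'.1 k.1 b1 b2 a1 a2
  obtain ⟨d, hd⟩ := exists_trace (Good.add (δ := sW σ δ) ⟨k'.1, by
    rw [mem_sub]; exact (sW_mul σ δ P).symm.trans (congrArg _ (mem_sub.1 k.2.1)), sW_even σ k.2.2⟩ k')
  have I := (ind_yq 0 d).mul (ind_xp σ)
  obtain ⟨w, e1, e2⟩ := I.conj x
  refine ⟨_, mul_mem (yq_N3 ?_ 0) (xp_N3 (by rw [sW_add, sW_e1, sW_e1, s1, s2])), w, e1, .inl ?_⟩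
  · have c1 := sW_apply σ δ pI
    have c2 := sW_apply σ δ pJ
    rw [s1] at c1; rw [s2] at c2
    rw [pr_cs, dotProduct_add, dot_e1, dot_e1, hd _ b1, hd _ b2, Pi.add_apply, Pi.add_apply, c1, c2, add_add_add_comm, a3, b3]; rfl
  rw [e2, ← e, ← e', Leech.smul_mk, one_mul, sC_zero, add_zero]
  refine congrArg _ (Subtype.ext (funext fun m => ?_))
  rw [mo_lT, lT_apply]
  rcases z2_cases ((sC σ P : W) m) with f | f
  exacts [by simp only [f, vz_zero, mul_zero, zero_mul], by rw [hd m f, Pi.add_apply, ← add_assoc, z2_add_self, zero_add]]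

end Cfsg.Lib.Bab
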