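import Cfsg.Agent.Lib.Monster.Co1
import Cfsg.Agent.Lib.Leech.NMax
import Cfsg.Agent.Lib.Uni.Basic
import Cfsg.Agent.Lib.Unitary.Simple

/-! # The stabilizer of a minimal vector of the Leech lattice -/

set_option autoImplicit false

namespace Cfsg.Lib.Bab

open Subgroup MulAction Cfsg.Lib.Leech Cfsg.Spor Cfsg.Lib.Mon Cfsg.Lib.F2 Cfsg.Lib.Unitary
open scoped Pointwise

theorem perfect_of_simple {G : Type*} [Group G] [IsSimpleGroup G] (h : ¬ (Nat.card G).Prime) : commutator G = ⊤ :=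
  (inferInstance : (commutator G).Normal).eq_bot_or_eq_top.resolve_left fun e =>
    have : IsMulCommutative G := (commutator_eq_bot_iff _).1 e
    h ((Group.is_simple_iff_prime_card (α := G)).1 ‹_›)

theorem perfect_of_surj {G L : Type*} [Group G] [Group L] {f : G →* L} (hf : Function.Surjective f) (h : commutator G = ⊤) :
    commutator L = ⊤ := by
  rw [commutator_def, ← map_top_of_surjective _ hf, ← map_commutator, ← commutator_def, h]

theorem perfect_m22 : commutator m22 = ⊤ := have := simple_m22; perfect_of_simple (by rw [card_m22]; norm_num)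

theorem perfect_u62 : commutator u62 = ⊤ := by
  obtain ⟨e⟩ := Uni.u62_equiv
  have := isSimpleGroup_PSU (q := 2) card_K4 (n := 6) (by norm_num) (by simp)
  have := ((mapCo1Equiv _ Uni.neg_u62).trans e).isSimpleGroup
  exact perfect_of_simple (by rw [card_u62]; norm_num)

theorem perfect_pair {v w : leechLattice} (hv : nm(v) = 32) (hw : nm(w) = 32) (h : dt(v, w) = 16) :
    commutator ↥(stabilizer Co0 v ⊓ stabilizer Co0 w) = ⊤ := by
  obtain ⟨g, rfl, rfl⟩ := exists_smul_pair32 (y := vXA) (n := 4600) (by simp [co2_L]) hv hw h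
  rw [stabilizer_smul_eq_stabilizer_map_conj, stabilizer_smul_eq_stabilizer_map_conj, ← map_inf _ _ _ (MulEquiv.injective _)]
  exact perfect_of_surj (MonoidHom.subgroupMap_surjective _ _) perfect_u62

theorem mem_pair {v w : leechLattice} (hv : nm(v) = 32) (hw : nm(w) = 32) (h : dt(v, w) = 16) {a : Co1}
    (h1 : a • (v : L2) = v) (h2 : a • (w : L2) = w) : a ∈ (stabilizer Co0 v ⊓ stabilizer Co0 w).map pr1 := by
  obtain ⟨g, hg, rfl⟩ := (stabilizer_mk (by omega)).le h1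
  refine ⟨g, ⟨hg, (eq_or_neg_of_code (y := g • w) (by omega) (by rw [sqNorm_smul]; omega)
    (L2_eq_iff.1 h2).symm).resolve_right fun e => ?_⟩, rfl⟩
  have := dot_smul g v w
  rw [mem_stabilizer_iff.1 hg, e, NegMemClass.coe_neg, dot_neg_right] at this
  omega

theorem le_orbit_aux {t u : leechLattice} (ht : nm(t) = 32) (hu : nm(u) = 48 ∨ nm(u) = 64) {H : Subgroup Co0}
    (hH : H ≤ stabilizer Co0 (u : L2)) (h : 552 ≤ (orbit H t).ncard) : 23287 ≤ (orbit (stabilizer Co0 t) (u : L2)).ncard := by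
  have := finite_co0
  have a1 := card_eq_ncard_mul' (G := Co0) (u : L2)
  have a2 := card_eq_ncard_mul (stabilizer Co0 (u : L2)) t
  have a3 := card_eq_ncard_mul' (G := Co0) t
  have a4 := card_eq_ncard_mul (stabilizer Co0 t) (u : L2)
  have b1 : 8292375 ≤ (orbit Co0 (u : L2)).ncard := by
    refine le_trans (b := (code '' shell nm(u)).ncard) (by rcases hu with e | e <;> simp [e, ncard_code48, ncard_code64]) ?_
    rw [← ncard_image_mk]
    refine Set.ncard_le_ncard ?_ (Set.finite_range _)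
    rintro _ ⟨v, hv, rfl⟩
    obtain ⟨g, hg⟩ := exists_smul_mk (x := u) (y := v) hv.symm (.inr hu)
    obtain ⟨g, rfl⟩ := QuotientGroup.mk_surjective g
    exact ⟨g, hg⟩
  have b2 : 552 ≤ (orbit (stabilizer Co0 (u : L2)) t).ncard :=
    h.trans (Set.ncard_le_ncard (by rintro _ ⟨g, rfl⟩; exact ⟨⟨g, hH g.2⟩, rfl⟩) (Set.finite_range _))
  have b3 : (orbit Co0 t).ncard = 196560 := by
    obtain ⟨g, rfl⟩ := exists_smul_U ht
    rw [orbit_smul, orbit_U, ncard_shell32]
  have b4 : 0 < Nat.card ↥(stabilizer Co0 t ⊓ stabilizer Co0 (u : L2)) := Nat.card_pos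
  rw [inf_comm] at a2
  rw [a3, a4, a2, b3, ← mul_assoc, ← mul_assoc, Nat.mul_right_cancel_iff b4] at a1
  have := Nat.mul_le_mul b1 b2
  omega

theorem le_orbit {t u : leechLattice} (ht : nm(t) = 32) (hu : nm(u) = 48 ∨ nm(u) = 64) :
    23287 ≤ (orbit (stabilizer Co0 t) (u : L2)).ncard := by
  have := finite_co0
  have key : ∀ (g : Co0) (w : leechLattice), g • (w : L2) = u → 23287 ≤ (orbit (stabilizer Co0 (g⁻¹ • t)) (w : L2)).ncard →
      23287 ≤ (orbit (stabilizer Co0 t) (u : L2)).ncard := fun g w e h =>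
    h.trans (Set.ncard_le_ncard_of_injOn (g • ·) (by
      rintro _ ⟨k, rfl⟩
      exact ⟨⟨g * k * g⁻¹, by rw [mem_stabilizer_iff, mul_smul, mul_smul, k.2, smul_inv_smul]⟩, by
        simp [← e, mul_smul, Subgroup.smul_def]⟩) (MulAction.injective g).injOn (Set.finite_range _))
  rcases hu with e | e
  · obtain ⟨g, rfl⟩ := exists_smul_V e
    have h1 := smul_mem_shell g⁻¹ ht
    obtain ⟨s, hs, e⟩ := co3_orbits.2 _ h1
    obtain ⟨e1, e2⟩ := co3_orbits.1 s hs
    refine key g leechV rfl (le_orbit_aux h1 (.inl nm_leechV) (H := co3) (fun k hk => congrArg _ hk) ?_)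
    rw [orbit_eq_iff.2 (e1.ge ⟨h1, e⟩), e1, e2]
    revert s; simp [co3_L]
  · obtain ⟨g, hg⟩ := exists_smul_mk (x := e8 none) ((sqNorm_e8 _).trans e.symm) (.inr (.inr (sqNorm_e8 _)))
    obtain ⟨g, rfl⟩ := QuotientGroup.mk_surjective g
    have h1 := smul_mem_shell g⁻¹ ht
    obtain ⟨s, hs, e⟩ := n_orbits.2 _ h1
    obtain ⟨e1, e2⟩ := n_orbits.1 s hs
    refine key g _ hg (le_orbit_aux h1 (.inr (sqNorm_e8 _)) (H := monoGrp) (fun k hk => L2_eq_iff.2 hk) ?_)
    rw [orbit_eq_iff.2 (e1.ge ⟨h1, e⟩), e1, e2]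
    revert s; simp [n_L]

/-- `2¹⁰ : M₂₂ : 2` is a maximal subgroup of `Co₂` -/
theorem co2_le {H : Subgroup Co0} (h1 : monoGrp ⊓ co2 ≤ H) {g : Co0} (hg : g ∈ H ⊓ co2) (h2 : g ∉ monoGrp) : co2 ≤ H := by
  have := finite_co0
  have hK : 0 < Nat.card ↥(co2 ⊓ stabilizer Co0 leechU') := Nat.card_pos
  have e : ∀ {H : Subgroup Co0}, monoGrp ⊓ co2 ≤ H → Nat.card ↥(H ⊓ co2) =
      (orbit ↥(H ⊓ co2) leechU').ncard * Nat.card ↥(co2 ⊓ stabilizer Co0 leechU') := fun h => by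
    rw [card_eq_ncard_mul (_ ⊓ co2) leechU', inf_assoc, inf_eq_right.2 ((le_inf stab_UU'_le inf_le_left).trans h)]
  obtain ⟨T, hT, eb⟩ := ncard_invariant (monoGrp ⊓ co2) (nu_L.map Prod.snd) (B := orbit ↥(H ⊓ co2) leechU')
    (by simp only [List.forall_mem_map]; exact fun t ht => by rw [(nu_orbits.1 t ht).1, (nu_orbits.1 t ht).2])
    (Set.finite_range _)
    (by
      rintro _ ⟨g, rfl⟩
      have hx : (g : Co0) • leechU' ∈ T1 leechU 0 := smul_mem_T1 g.2.2 ⟨nm_leechU', dt_leechU_leechU'⟩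
      obtain ⟨t, ht, e⟩ := nu_orbits.2 _ hx
      exact ⟨t.2, List.mem_map_of_mem ht, (nu_orbits.1 t ht).1 ▸ ⟨hx, e⟩⟩)
    (by rintro g hg _ ⟨k, rfl⟩; exact ⟨⟨g, h1 hg, hg.2⟩ * k, mul_smul _ _ _⟩)
  have e0 := card_eq_ncard_mul co2 leechU'
  have e1 := e le_rfl
  have e2 := e h1
  have b := nu_orbits.1 ((512, 1024), leechU', 2) (by simp [nu_L])
  rw [orbit_co2_U'.1, orbit_co2_U'.2] at e0
  rw [inf_assoc, inf_idem, b.1, b.2] at e1
  have d1 := card_dvd_of_le (inf_le_right : H ⊓ co2 ≤ co2)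
  rw [eb] at e2
  rw [e2, e0, Nat.mul_dvd_mul_iff_right hK] at d1
  rcases (by decide +kernel : ∀ T ∈ [2, 924, 4928, 42240, 45056].sublists', T.sum ∣ 93150 → T.sum = 2 ∨ T.sum = 93150)
    T hT d1 with h | h <;> rw [h] at e2
  · exact (h2 ((eq_of_le_of_card_ge (le_inf h1 inf_le_right) (e2.trans e1.symm).le).ge hg).1).elim
  · exact (eq_of_le_of_card_ge inf_le_right (e0.trans e2.symm).le).ge.trans inf_le_left

end Cfsg.Lib.Bab
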